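import Mathlib
import Cfsg.Prelude.Def_RootSubgroups

/-!
Basic lemmas on `Cfsg.conjBy` and rank one pairs.
-/

set_option autoImplicit false
open Cfsg

namespace Cfsg.Agent.H28

variable {G : Type*} [Group G]

theorem mem_conjBy {A : Subgroup G} {g x : G} :
    x ∈ Cfsg.conjBy A g ↔ g⁻¹ * x * g ∈ A := by
  unfold Cfsg.conjBy
  rw [Subgroup.mem_map]
  constructor
  · rintro ⟨y, hy, rfl⟩
    simpa [MulAut.conj_apply, mul_assoc] using hy
  · intro h
    exact ⟨_, h, by simp [MulAut.conj_apply, mul_assoc]⟩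

theorem conjBy_one (A : Subgroup G) : Cfsg.conjBy A 1 = A := by
  ext x; rw [mem_conjBy]; simp

theorem conjBy_conjBy (A : Subgroup G) (g h : G) :
    Cfsg.conjBy (Cfsg.conjBy A h) g = Cfsg.conjBy A (g * h) := by
  ext x; rw [mem_conjBy, mem_conjBy, mem_conjBy]; simp [mul_assoc]

theorem conjBy_inj {A B : Subgroup G} {g : G} (h : Cfsg.conjBy A g = Cfsg.conjBy B g) : A = B := by
  have := congrArg (fun C => Cfsg.conjBy C g⁻¹) h
  simpa [conjBy_conjBy, conjBy_one] using this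

theorem mem_normalizer_iff_conjBy {A : Subgroup G} {g : G} :
    g ∈ Subgroup.normalizer (A : Set G) ↔ Cfsg.conjBy A g = A := by
  rw [Subgroup.mem_normalizer_iff]
  constructor
  · intro h
    ext x
    rw [mem_conjBy]
    have h1 := h (g⁻¹ * x * g)
    rw [h1]
    simp [mul_assoc]
  · intro h x
    have : (g * x * g⁻¹ ∈ Cfsg.conjBy A g) ↔ x ∈ A := by
      rw [mem_conjBy]; simp [mul_assoc]
    rw [h] at this
    exact this.symm

theorem conjBy_mem_self {A : Subgroup G} {g : G} (hg : g ∈ A) : Cfsg.conjBy A g = A :=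
  mem_normalizer_iff_conjBy.1 (Subgroup.le_normalizer hg)

theorem conjBy_eq_iff {A B : Subgroup G} {g : G} :
    Cfsg.conjBy A g = B ↔ A = Cfsg.conjBy B g⁻¹ := by
  constructor
  · rintro rfl; rw [conjBy_conjBy]; simp [conjBy_one]
  · rintro rfl; rw [conjBy_conjBy]; simp [conjBy_one]

theorem conjBy_sup (A B : Subgroup G) (g : G) :
    Cfsg.conjBy (A ⊔ B) g = Cfsg.conjBy A g ⊔ Cfsg.conjBy B g := by
  unfold Cfsg.conjBy; rw [Subgroup.map_sup]

theorem conjBy_mono {A B : Subgroup G} (h : A ≤ B) (g : G) :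
    Cfsg.conjBy A g ≤ Cfsg.conjBy B g := Subgroup.map_mono h

theorem conjBy_le_iff {A B : Subgroup G} {g : G} :
    Cfsg.conjBy A g ≤ Cfsg.conjBy B g ↔ A ≤ B := by
  constructor
  · intro h
    have := conjBy_mono h g⁻¹
    simpa [conjBy_conjBy, conjBy_one] using this
  · intro h; exact conjBy_mono h g

section
variable {A B : Subgroup G}

theorem rankOne_symm (h : Cfsg.IsRankOnePair A B) : Cfsg.IsRankOnePair B A :=
  Cfsg.RankOnePair_symm h

theorem rankOne_left_normalizer (h : Cfsg.IsRankOnePair A B) {a : G} (ha : a ∈ A)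
    (hn : a ∈ Subgroup.normalizer (B : Set G)) : a = 1 := by
  by_contra ha1
  obtain ⟨b, hb, -, hab⟩ := h.cond_left a ha ha1
  have h1 : Cfsg.conjBy B a⁻¹ = B := mem_normalizer_iff_conjBy.1 (inv_mem hn)
  rw [h1, conjBy_eq_iff, inv_inv, conjBy_mem_self hb] at hab
  exact h.ne hab

theorem rankOne_inf_normalizer (h : Cfsg.IsRankOnePair A B) :
    A ⊓ Subgroup.normalizer (B : Set G) = ⊥ := by
  rw [eq_bot_iff]
  rintro a ⟨ha, hn⟩
  exact Subgroup.mem_bot.2 (rankOne_left_normalizer h ha hn)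

theorem rankOne_unique (h : Cfsg.IsRankOnePair A B) {b b' g : G} (hb : b ∈ B) (hb' : b' ∈ B)
    (h1 : Cfsg.conjBy A b⁻¹ = Cfsg.conjBy B g) (h2 : Cfsg.conjBy A b'⁻¹ = Cfsg.conjBy B g) :
    b = b' := by
  rw [← h2, conjBy_eq_iff, inv_inv, conjBy_conjBy] at h1
  have h3 : b * b'⁻¹ ∈ Subgroup.normalizer (A : Set G) := mem_normalizer_iff_conjBy.2 h1.symm
  have := rankOne_left_normalizer (rankOne_symm h) (B.mul_mem hb (B.inv_mem hb')) h3
  exact mul_inv_eq_one.1 this

theorem rankOne_inf (h : Cfsg.IsRankOnePair A B) : A ⊓ B = ⊥ := by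
  rw [eq_bot_iff, ← rankOne_inf_normalizer h]
  exact inf_le_inf_left _ Subgroup.le_normalizer

end

end Cfsg.Agent.H28
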