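import Mathlib
import Cfsg.Agent.H28.GroupSimple
import Cfsg.Agent.H2.Basic
import Cfsg.Agent.H7.GolaySimple

/-!
Certificates for Sylow subgroups of subgroups of `Perm GolayPt` given by permutation codes.
-/

set_option autoImplicit false
open Cfsg Cfsg.FusionSystem Cfsg.Agent.H7
open scoped Pointwise

namespace Cfsg.Agent.H28

/-- identity code -/
def idc : ℕ := 0xbdab49ca307b9ac5a928398a418820

theorem idc_code : isPermCode idc = true := by decide +kernel

theorem papp_idc : ∀ i < 24, papp idc i = i := by decide +kernel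

theorem mkPerm_idc : mkPerm idc = 1 := by
  ext1 p
  rw [mkPerm_apply idc_code, papp_idc _ (gidx_lt p), gpt_gidx]; rfl

def ceq (c d : ℕ) : Bool := Nat.beq (c % 2 ^ 120) (d % 2 ^ 120)

theorem testBit_papp (c n : ℕ) : c.testBit n = (papp c (n / 5)).testBit (n % 5) := by
  unfold papp
  have h1 : (32 : ℕ) = 2 ^ 5 := by norm_num
  rw [h1, Nat.testBit_mod_two_pow, Nat.testBit_shiftRight]
  have h2 : n % 5 < 5 := Nat.mod_lt _ (by norm_num)
  have h3 : 5 * (n / 5) + n % 5 = n := Nat.div_add_mod n 5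
  rw [h3]
  simp [h2]

theorem mod_eq_of_papp {c d : ℕ} (h : ∀ i < 24, papp c i = papp d i) :
    c % 2 ^ 120 = d % 2 ^ 120 := by
  apply Nat.eq_of_testBit_eq
  intro n
  rw [Nat.testBit_mod_two_pow, Nat.testBit_mod_two_pow]
  by_cases hn : n < 120
  · rw [testBit_papp c, testBit_papp d, h (n / 5) (by omega)]
  · simp [hn]

theorem ceq_of_mkPerm {c d : ℕ} (hc : isPermCode c = true) (hd : isPermCode d = true)
    (h : mkPerm c = mkPerm d) : ceq c d = true := by
  unfold ceq
  have : c % 2 ^ 120 = d % 2 ^ 120 := by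
    apply mod_eq_of_papp
    intro i hi
    have h1 := mkPerm_gpt hc hi
    rw [h, mkPerm_gpt hd hi] at h1
    have h2 := congrArg gidx h1
    rw [gidx_gpt (papp_lt hd hi), gidx_gpt (papp_lt hc hi)] at h2
    exact h2.symm
  rw [this]
  exact Nat.beq_refl _

/-- Enumeration of a subgroup by codes. -/
structure Enum (K : Subgroup (Equiv.Perm GolayPt)) (gens L : List ℕ) : Prop where
  gen : K = Subgroup.closure {x | ∃ c ∈ gens, x = mkPerm c}
  gcode : ∀ c ∈ gens, isPermCode c = true
  code : ∀ c ∈ L, isPermCode c = true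
  one : idc ∈ L
  sound : ∀ c ∈ L, mkPerm c ∈ K
  complete : ∀ x ∈ K, ∃ c ∈ L, x = mkPerm c
  card : Nat.card K = L.length

theorem Enum.base : Enum ⊥ [] [idc] where
  gen := by simp
  gcode := by simp
  code := by simp [idc_code]
  one := by simp
  sound := by simp [mkPerm_idc]
  complete := by
    intro x hx
    rw [Subgroup.mem_bot] at hx
    exact ⟨idc, by simp, by rw [hx, mkPerm_idc]⟩
  card := by simp

def extL (L : List ℕ) (g : ℕ) : List ℕ := L ++ L.map (fun c => pmul c g)

def checkW (L : List ℕ) (g : ℕ) : List ℕ → List ℕ → Bool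
  | [], _ => true
  | gi :: gs, i :: is => Nat.beq (pmul (L.getD i idc) g) (pmul g gi) && checkW L g gs is
  | _ :: _, [] => false

def stepOK (gens L : List ℕ) (g : ℕ) (w : List ℕ) (w2 : ℕ) : Bool :=
  isPermCode g && (L.all (fun c => !(ceq c g)) && (checkW L g gens w &&
    Nat.beq (pmul g g) (L.getD w2 idc)))

theorem getD_mem {L : List ℕ} (h : idc ∈ L) (i : ℕ) : L.getD i idc ∈ L := by
  by_cases hi : i < L.length
  · rw [List.getD_eq_getElem _ _ hi]; exact List.getElem_mem hi
  · rw [List.getD_eq_default _ _ (by omega)]; exact h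

theorem checkW_spec {L : List ℕ} {g : ℕ} (hL : idc ∈ L) : ∀ (gens w : List ℕ),
    checkW L g gens w = true → ∀ gi ∈ gens, ∃ c ∈ L, pmul c g = pmul g gi := by
  intro gens
  induction gens with
  | nil => intro w _ gi h; simp at h
  | cons a gs ih =>
    intro w hw gi hgi
    cases w with
    | nil => simp [checkW] at hw
    | cons i is =>
      rw [checkW, Bool.and_eq_true] at hw
      rcases List.mem_cons.1 hgi with rfl | h
      · exact ⟨_, getD_mem hL i, Nat.eq_of_beq_eq_true hw.1⟩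
      · exact ih is hw.2 gi h

theorem mkPerm_pmul' {c d : ℕ} (hc : isPermCode c = true) (hd : isPermCode d = true) :
    mkPerm (pmul c d) = mkPerm c * mkPerm d := mkPerm_pmul hc hd (isPermCode_pmul hc hd)

section abstract_step
variable {Γ : Type*} [Group Γ]

/-- `K ∪ Ka` as a subgroup. -/
def extSub (K : Subgroup Γ) [Finite K] (a : Γ) (h1 : ∀ x ∈ K, a * x * a⁻¹ ∈ K)
    (h2 : a * a ∈ K) : Subgroup Γ where
  carrier := {x | x ∈ K ∨ x * a⁻¹ ∈ K}
  one_mem' := Or.inl K.one_mem
  mul_mem' := by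
    rintro x y (hx | hx) (hy | hy)
    · exact Or.inl (K.mul_mem hx hy)
    · right; rw [mul_assoc]; exact K.mul_mem hx hy
    · right
      have : x * y * a⁻¹ = (x * a⁻¹) * (a * y * a⁻¹) := by group
      rw [this]; exact K.mul_mem hx (h1 y hy)
    · left
      have : x * y = (x * a⁻¹) * (a * (y * a⁻¹) * a⁻¹) * (a * a) := by group
      rw [this]; exact K.mul_mem (K.mul_mem hx (h1 _ hy)) h2
  inv_mem' := by
    have hn := mem_normalizer_of_finite h1
    rintro x (hx | hx)
    · exact Or.inl (K.inv_mem hx)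
    · right
      have h3 : a⁻¹ * (x * a⁻¹)⁻¹ * a ∈ K := by
        have := (Subgroup.mem_normalizer_iff.1 (Subgroup.inv_mem _ hn) (x * a⁻¹)⁻¹).1
          (K.inv_mem hx)
        rwa [inv_inv] at this
      have : x⁻¹ * a⁻¹ = (a⁻¹ * (x * a⁻¹)⁻¹ * a) * (a * a)⁻¹ := by group
      rw [this]; exact K.mul_mem h3 (K.inv_mem h2)

theorem mem_extSub {K : Subgroup Γ} [Finite K] {a x : Γ} {h1 : ∀ x ∈ K, a * x * a⁻¹ ∈ K}
    {h2 : a * a ∈ K} : x ∈ extSub K a h1 h2 ↔ x ∈ K ∨ x * a⁻¹ ∈ K := Iff.rfl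

theorem card_extSub {K : Subgroup Γ} [Finite K] {a : Γ} {h1 : ∀ x ∈ K, a * x * a⁻¹ ∈ K}
    {h2 : a * a ∈ K} (ha : a ∉ K) : Nat.card (extSub K a h1 h2) = 2 * Nat.card K := by
  have h3 : ((extSub K a h1 h2 : Subgroup Γ) : Set Γ) = (K : Set Γ) ∪ (fun y => y * a) '' K := by
    ext x
    rw [SetLike.mem_coe, mem_extSub, Set.mem_union, SetLike.mem_coe]
    refine or_congr Iff.rfl ⟨fun h => ⟨x * a⁻¹, h, by simp⟩, ?_⟩
    rintro ⟨y, hy, rfl⟩
    simpa using hy
  have h4 : Disjoint (K : Set Γ) ((fun y => y * a) '' K) := by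
    rw [Set.disjoint_left]
    rintro _ hx ⟨y, hy, rfl⟩
    apply ha
    have : a = y⁻¹ * (y * a) := by group
    rw [this]; exact K.mul_mem (K.inv_mem hy) hx
  have hf : (K : Set Γ).Finite := Set.toFinite _
  have e : Nat.card (extSub K a h1 h2) = ((extSub K a h1 h2 : Subgroup Γ) : Set Γ).ncard := rfl
  have e2 : Nat.card K = (K : Set Γ).ncard := rfl
  rw [e, e2, h3, Set.ncard_union_eq h4 hf (hf.image _),
    Set.ncard_image_of_injective _ (mul_left_injective a), two_mul]

end abstract_step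

theorem Enum.step {K : Subgroup (Equiv.Perm GolayPt)} {gens L : List ℕ} (h : Enum K gens L)
    (g : ℕ) (w : List ℕ) (w2 : ℕ) (hck : stepOK gens L g w w2 = true) :
    ∃ K', Enum K' (g :: gens) (extL L g) := by
  unfold stepOK at hck
  rw [Bool.and_eq_true, Bool.and_eq_true, Bool.and_eq_true] at hck
  obtain ⟨hg, hne, hw, h2⟩ := hck
  have h1 : ∀ x ∈ K, mkPerm g * x * (mkPerm g)⁻¹ ∈ K := by
    intro x hx
    have hx' := hx
    rw [h.gen] at hx'
    refine Subgroup.closure_induction (p := fun x _ => mkPerm g * x * (mkPerm g)⁻¹ ∈ K)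
      ?_ ?_ ?_ ?_ hx'
    · rintro _ ⟨gi, hgi, rfl⟩
      obtain ⟨c, hc, hcg⟩ := checkW_spec h.one gens w hw gi hgi
      have h3 : mkPerm c * mkPerm g = mkPerm g * mkPerm gi := by
        rw [← mkPerm_pmul' (h.code c hc) hg, ← mkPerm_pmul' hg (h.gcode gi hgi), hcg]
      rw [← h3]
      simpa using h.sound c hc
    · simp
    · intro a b _ _ ha hb
      have : mkPerm g * (a * b) * (mkPerm g)⁻¹ =
        (mkPerm g * a * (mkPerm g)⁻¹) * (mkPerm g * b * (mkPerm g)⁻¹) := by group
      rw [this]; exact K.mul_mem ha hb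
    · intro a _ ha
      have : mkPerm g * a⁻¹ * (mkPerm g)⁻¹ = (mkPerm g * a * (mkPerm g)⁻¹)⁻¹ := by group
      rw [this]; exact K.inv_mem ha
  have h3 : mkPerm g * mkPerm g ∈ K := by
    rw [← mkPerm_pmul' hg hg, Nat.eq_of_beq_eq_true h2]
    exact h.sound _ (getD_mem h.one _)
  have h4 : mkPerm g ∉ K := by
    intro hgK
    obtain ⟨c, hc, hcg⟩ := h.complete _ hgK
    have h5 := List.all_eq_true.1 hne c hc
    rw [ceq_of_mkPerm (h.code c hc) hg hcg.symm] at h5
    simp at h5
  refine ⟨extSub K (mkPerm g) h1 h3, ?_, ?_, ?_, ?_, ?_, ?_, ?_⟩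
  · apply le_antisymm
    · have hsub : K ≤ Subgroup.closure {x | ∃ c ∈ g :: gens, x = mkPerm c} := by
        rw [h.gen]
        apply Subgroup.closure_mono
        rintro _ ⟨c, hc, rfl⟩
        exact ⟨c, List.mem_cons_of_mem _ hc, rfl⟩
      have hgm : mkPerm g ∈ Subgroup.closure {x | ∃ c ∈ g :: gens, x = mkPerm c} :=
        Subgroup.subset_closure ⟨g, List.mem_cons_self, rfl⟩
      rintro x (hx | hx)
      · exact hsub hx
      · have := Subgroup.mul_mem _ (hsub hx) hgm
        simpa using this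
    · rw [Subgroup.closure_le]
      rintro _ ⟨c, hc, rfl⟩
      rcases List.mem_cons.1 hc with rfl | hc
      · right; rw [mul_inv_cancel]; exact K.one_mem
      · left
        rw [h.gen]; exact Subgroup.subset_closure ⟨c, hc, rfl⟩
  · intro c hc
    rcases List.mem_cons.1 hc with rfl | hc
    · exact hg
    · exact h.gcode c hc
  · intro c hc
    unfold extL at hc
    rcases List.mem_append.1 hc with hc | hc
    · exact h.code c hc
    · obtain ⟨d, hd, rfl⟩ := List.mem_map.1 hc
      exact isPermCode_pmul (h.code d hd) hg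
  · exact List.mem_append_left _ h.one
  · intro c hc
    unfold extL at hc
    rcases List.mem_append.1 hc with hc | hc
    · exact Or.inl (h.sound c hc)
    · obtain ⟨d, hd, rfl⟩ := List.mem_map.1 hc
      right
      rw [mkPerm_pmul' (h.code d hd) hg, mul_inv_cancel_right]
      exact h.sound d hd
  · rintro x (hx | hx)
    · obtain ⟨c, hc, rfl⟩ := h.complete x hx
      exact ⟨c, List.mem_append_left _ hc, rfl⟩
    · obtain ⟨c, hc, hcx⟩ := h.complete _ hx
      refine ⟨pmul c g, List.mem_append_right _ (List.mem_map.2 ⟨c, hc, rfl⟩), ?_⟩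
      rw [mkPerm_pmul' (h.code c hc) hg, ← hcx]
      simp
  · rw [card_extSub h4, h.card]
    unfold extL
    rw [List.length_append, List.length_map, two_mul]

/-! ### centre -/

def ctrOK (gens L : List ℕ) (z : ℕ) : Bool :=
  L.all fun c => Nat.beq c idc || (Nat.beq c z || gens.any fun g => !(ceq (pmul c g) (pmul g c)))

theorem Enum.ctr {K : Subgroup (Equiv.Perm GolayPt)} {gens L : List ℕ} (h : Enum K gens L)
    {z : ℕ} (hck : ctrOK gens L z = true) {x : Equiv.Perm GolayPt} (hx : x ∈ K)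
    (hc : ∀ s ∈ K, x * s = s * x) : x = 1 ∨ x = mkPerm z := by
  obtain ⟨c, hcL, rfl⟩ := h.complete x hx
  have h1 := List.all_eq_true.1 hck c hcL
  rw [Bool.or_eq_true, Bool.or_eq_true] at h1
  rcases h1 with h1 | h1 | h1
  · left; rw [Nat.eq_of_beq_eq_true h1, mkPerm_idc]
  · right; rw [Nat.eq_of_beq_eq_true h1]
  · exfalso
    obtain ⟨g, hg, hgc⟩ := List.any_eq_true.1 h1
    have hgK : mkPerm g ∈ K := by
      rw [h.gen]; exact Subgroup.subset_closure ⟨g, hg, rfl⟩
    have h2 := hc _ hgK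
    rw [← mkPerm_pmul' (h.code c hcL) (h.gcode g hg),
      ← mkPerm_pmul' (h.gcode g hg) (h.code c hcL)] at h2
    have h3 := ceq_of_mkPerm (isPermCode_pmul (h.code c hcL) (h.gcode g hg))
      (isPermCode_pmul (h.gcode g hg) (h.code c hcL)) h2
    rw [h3] at hgc
    simp at hgc

/-! ### strongly closed subgroups -/

inductive TStep
  | conj (i j h : ℕ) : TStep
  | prod (j k : ℕ) : TStep

def tCheck (ok : ℕ → Bool) (L gens : List ℕ) : List TStep → List ℕ → Bool
  | [], Ts => gens.all fun g => Ts.any fun t => Nat.beq t g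
  | TStep.conj i j h :: r, Ts => ok h && (Nat.beq (pmul h (Ts.getD j idc)) (pmul (L.getD i idc) h)
      && tCheck ok L gens r (Ts ++ [L.getD i idc]))
  | TStep.prod j k :: r, Ts => tCheck ok L gens r (Ts ++ [pmul (Ts.getD j idc) (Ts.getD k idc)])

theorem Enum.tCheck_spec {K : Subgroup (Equiv.Perm GolayPt)} {gens L : List ℕ}
    (h : Enum K gens L) {ok : ℕ → Bool} {G T : Subgroup (Equiv.Perm GolayPt)}
    (hok : ∀ c, ok c = true → isPermCode c = true ∧ mkPerm c ∈ G)
    (hT : ∀ t ∈ T, ∀ g ∈ G, g * t * g⁻¹ ∈ K → g * t * g⁻¹ ∈ T) :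
    ∀ (r : List TStep) (Ts : List ℕ), (∀ t ∈ Ts, isPermCode t = true ∧ mkPerm t ∈ T) →
      tCheck ok L gens r Ts = true → K ≤ T := by
  have hgetD : ∀ (Ts : List ℕ), (∀ t ∈ Ts, isPermCode t = true ∧ mkPerm t ∈ T) → ∀ j,
      isPermCode (Ts.getD j idc) = true ∧ mkPerm (Ts.getD j idc) ∈ T := by
    intro Ts hTs j
    by_cases hj : j < Ts.length
    · rw [List.getD_eq_getElem _ _ hj]; exact hTs _ (List.getElem_mem hj)
    · rw [List.getD_eq_default _ _ (by omega), mkPerm_idc]; exact ⟨idc_code, T.one_mem⟩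
  intro r
  induction r with
  | nil =>
    intro Ts hTs hck
    rw [tCheck] at hck
    rw [h.gen, Subgroup.closure_le]
    rintro _ ⟨g, hg, rfl⟩
    have h1 := List.all_eq_true.1 hck g hg
    obtain ⟨t, ht, htg⟩ := List.any_eq_true.1 h1
    rw [← Nat.eq_of_beq_eq_true htg]
    exact (hTs t ht).2
  | cons s r ih =>
    intro Ts hTs hck
    cases s with
    | conj i j c =>
      rw [tCheck, Bool.and_eq_true, Bool.and_eq_true] at hck
      obtain ⟨hc, he, hr⟩ := hck
      obtain ⟨hc1, hc2⟩ := hok c hc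
      refine ih _ ?_ hr
      intro t ht
      rcases List.mem_append.1 ht with ht | ht
      · exact hTs t ht
      · rw [List.mem_singleton] at ht
        subst ht
        have hiL := getD_mem h.one i
        obtain ⟨hj1, hj2⟩ := hgetD Ts hTs j
        refine ⟨h.code _ hiL, ?_⟩
        have h3 : mkPerm c * mkPerm (Ts.getD j idc) = mkPerm (L.getD i idc) * mkPerm c := by
          rw [← mkPerm_pmul' hc1 hj1, ← mkPerm_pmul' (h.code _ hiL) hc1,
            Nat.eq_of_beq_eq_true he]
        have h4 : mkPerm (L.getD i idc) = mkPerm c * mkPerm (Ts.getD j idc) * (mkPerm c)⁻¹ := by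
          rw [h3, mul_inv_cancel_right]
        rw [h4]
        exact hT _ hj2 _ hc2 (by rw [← h4]; exact h.sound _ hiL)
    | prod j k =>
      rw [tCheck] at hck
      refine ih _ ?_ hck
      intro t ht
      rcases List.mem_append.1 ht with ht | ht
      · exact hTs t ht
      · rw [List.mem_singleton] at ht
        obtain ⟨hj1, hj2⟩ := hgetD Ts hTs j
        obtain ⟨hk1, hk2⟩ := hgetD Ts hTs k
        rw [ht, mkPerm_pmul' hj1 hk1]
        exact ⟨isPermCode_pmul hj1 hk1, T.mul_mem hj2 hk2⟩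

/-! ### the normalizer -/

def orbm (L : List ℕ) (q : ℕ) : ℕ := L.foldr (fun c acc => (1 <<< papp c q) ||| acc) 0

def stabL (L A : List ℕ) : List ℕ := L.filter fun c => A.all fun a => Nat.beq (papp c a) a

def nOK (L : List ℕ) (m : ℕ) (F : List ℕ) (p : ℕ) (A : List ℕ) : Bool :=
  Nat.blt p 24 && (!(F.any fun a => Nat.beq a p) && ((A.all fun a => F.any fun b => Nat.beq b a) &&
  (List.range 24).all fun q => (F.any fun a => Nat.beq a q) ||
    ((!(m.testBit q == m.testBit p)) ||
    (!(Nat.beq (popc (orbm (stabL L A) q)) (popc (orbm (stabL L A) p))) ||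
    (orbm (stabL L F) p).testBit q))))

def nChain (L : List ℕ) (m : ℕ) : List (ℕ × List ℕ) → List ℕ → Bool
  | [], _ => true
  | (p, A) :: r, F => nOK L m F p A && nChain L m r (p :: F)

def finF : List (ℕ × List ℕ) → List ℕ → List ℕ
  | [], F => F
  | (p, _) :: r, F => finF r (p :: F)

theorem testBit_orbm {L : List ℕ} {q j : ℕ} :
    (orbm L q).testBit j = true ↔ ∃ c ∈ L, papp c q = j := testBit_foldr_or L (fun c => papp c q) j

theorem any_beq {F : List ℕ} {q : ℕ} : (F.any fun a => Nat.beq a q) = true ↔ q ∈ F := by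
  rw [List.any_eq_true]
  constructor
  · rintro ⟨a, ha, h⟩; rw [← Nat.eq_of_beq_eq_true h]; exact ha
  · intro h; exact ⟨q, h, Nat.beq_refl q⟩

/-- membership in the pointwise stabiliser list -/
theorem Enum.mem_stabL {K : Subgroup (Equiv.Perm GolayPt)} {gens L : List ℕ} (h : Enum K gens L)
    {A : List ℕ} (hA : ∀ a ∈ A, a < 24) {c : ℕ} :
    c ∈ stabL L A ↔ c ∈ L ∧ ∀ a ∈ A, mkPerm c (gpt a) = gpt a := by
  unfold stabL
  rw [List.mem_filter]
  refine and_congr_right fun hc => ?_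
  rw [List.all_eq_true]
  refine forall₂_congr fun a ha => ?_
  rw [mkPerm_gpt (h.code c hc) (hA a ha)]
  constructor
  · intro he; rw [Nat.eq_of_beq_eq_true he]
  · intro he
    have h2 := congrArg gidx he
    rw [gidx_gpt (papp_lt (h.code c hc) (hA a ha)), gidx_gpt (hA a ha)] at h2
    rw [h2]; exact Nat.beq_refl _

theorem Enum.mem_orb {K : Subgroup (Equiv.Perm GolayPt)} {gens L : List ℕ} (h : Enum K gens L)
    {A : List ℕ} (hA : ∀ a ∈ A, a < 24) {q : ℕ} (hq : q < 24) {x : GolayPt} :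
    x ∈ toSet (orbm (stabL L A) q) ↔
      ∃ s ∈ K, (∀ a ∈ A, s (gpt a) = gpt a) ∧ s (gpt q) = x := by
  rw [mem_toSet, testBit_orbm]
  constructor
  · rintro ⟨c, hc, hcq⟩
    obtain ⟨hcL, hcA⟩ := (h.mem_stabL hA).1 hc
    refine ⟨mkPerm c, h.sound c hcL, hcA, ?_⟩
    rw [mkPerm_gpt (h.code c hcL) hq, hcq, gpt_gidx]
  · rintro ⟨s, hs, hsA, hsq⟩
    obtain ⟨c, hc, rfl⟩ := h.complete s hs
    refine ⟨c, (h.mem_stabL hA).2 ⟨hc, hsA⟩, ?_⟩
    rw [mkPerm_gpt (h.code c hc) hq] at hsq
    rw [← hsq, gidx_gpt (papp_lt (h.code c hc) hq)]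

theorem Enum.chain_spec {K : Subgroup (Equiv.Perm GolayPt)} {gens L : List ℕ} (h : Enum K gens L)
    {G : Subgroup (Equiv.Perm GolayPt)} (hKG : K ≤ G) {m : ℕ}
    (hm : ∀ g ∈ G, g • toSet m = toSet m) : ∀ (r : List (ℕ × List ℕ)) (F : List ℕ),
      (∀ a ∈ F, a < 24) → nChain L m r F = true →
      (∀ g ∈ G, (∀ a ∈ finF r F, g (gpt a) = gpt a) → g = 1) →
      ∀ n ∈ G, (∀ s ∈ K, n * s * n⁻¹ ∈ K) → (∀ a ∈ F, n (gpt a) = gpt a) → n ∈ K := by
  intro r
  induction r with
  | nil =>
    intro F hF _ hfin n hn _ hnF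
    rw [hfin n hn hnF]; exact K.one_mem
  | cons pA r ih =>
    obtain ⟨p, A⟩ := pA
    intro F hF hck hfin n hn hnK hnF
    rw [nChain, Bool.and_eq_true] at hck
    obtain ⟨hok, hr⟩ := hck
    unfold nOK at hok
    rw [Bool.and_eq_true, Bool.and_eq_true, Bool.and_eq_true] at hok
    obtain ⟨hp, hpF, hAF, hq⟩ := hok
    have hp24 : p < 24 := by simpa [Nat.blt] using hp
    have hpF' : p ∉ F := by
      intro hmem
      rw [any_beq.2 hmem] at hpF
      simp at hpF
    have hAF' : ∀ a ∈ A, a ∈ F := fun a ha => any_beq.1 (List.all_eq_true.1 hAF a ha)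
    have hA24 : ∀ a ∈ A, a < 24 := fun a ha => hF a (hAF' a ha)
    have hnN := mem_normalizer_of_finite (P := K) (s := n) hnK
    -- the image point
    obtain ⟨q, hq24, hnq⟩ : ∃ q < 24, n (gpt p) = gpt q := ⟨gidx (n (gpt p)), gidx_lt _, by
      rw [gpt_gidx]⟩
    have hqc := List.all_eq_true.1 hq q (List.mem_range.2 hq24)
    rw [Bool.or_eq_true, Bool.or_eq_true, Bool.or_eq_true] at hqc
    have hqF : q ∉ F := by
      intro hmem
      have h1 := hnF q hmem
      have h4 : gpt q = gpt p := n.injective (h1.trans hnq.symm)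
      have h5 := congrArg gidx h4
      rw [gidx_gpt hq24, gidx_gpt hp24] at h5
      exact hpF' (h5 ▸ hmem)
    have hmb : (m.testBit q == m.testBit p) = true := by
      have h1 : gpt q ∈ toSet m ↔ gpt p ∈ toSet m := by
        rw [← hnq]; exact mem_iff_of_smul_eq (hm n hn) (gpt p)
      rw [gpt_mem_toSet hq24, gpt_mem_toSet hp24] at h1
      rw [beq_iff_eq, Bool.eq_iff_iff]; exact h1
    have hcard : popc (orbm (stabL L A) q) = popc (orbm (stabL L A) p) := by
      rw [← card_toSet, ← card_toSet]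
      symm
      apply Finset.card_bij (fun x _ => n x)
      · intro x hx
        obtain ⟨s, hs, hsA, hsp⟩ := (h.mem_orb hA24 hp24).1 hx
        refine (h.mem_orb hA24 hq24).2 ⟨n * s * n⁻¹, hnK s hs, fun a ha => ?_, ?_⟩
        · have h1 : n⁻¹ (gpt a) = gpt a := by
            rw [Equiv.Perm.inv_eq_iff_eq]; exact (hnF a (hAF' a ha)).symm
          rw [Equiv.Perm.mul_apply, Equiv.Perm.mul_apply, h1, hsA a ha, hnF a (hAF' a ha)]
        · rw [← hnq, Equiv.Perm.mul_apply, Equiv.Perm.mul_apply, ← Equiv.Perm.mul_apply n⁻¹ n,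
            inv_mul_cancel, Equiv.Perm.one_apply, hsp]
      · intro x _ y _ hxy; exact n.injective hxy
      · intro y hy
        obtain ⟨s, hs, hsA, hsq⟩ := (h.mem_orb hA24 hq24).1 hy
        refine ⟨n⁻¹ y, (h.mem_orb hA24 hp24).2 ⟨n⁻¹ * s * n, ?_, fun a ha => ?_, ?_⟩, by simp⟩
        · have := (Subgroup.mem_normalizer_iff.1 (Subgroup.inv_mem _ hnN) s).1 hs
          rwa [inv_inv] at this
        · rw [Equiv.Perm.mul_apply, Equiv.Perm.mul_apply, hnF a (hAF' a ha), hsA a ha,
            Equiv.Perm.inv_eq_iff_eq]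
          exact (hnF a (hAF' a ha)).symm
        · rw [Equiv.Perm.mul_apply, Equiv.Perm.mul_apply, hnq, hsq]
    have hin : (orbm (stabL L F) p).testBit q = true := by
      rcases hqc with h1 | h1 | h1 | h1
      · exact absurd (any_beq.1 h1) hqF
      · rw [hmb] at h1; simp at h1
      · rw [hcard, Nat.beq_refl] at h1; simp at h1
      · exact h1
    have hin' : gpt q ∈ toSet (orbm (stabL L F) p) := (gpt_mem_toSet hq24).2 hin
    obtain ⟨s, hs, hsF, hsp⟩ := (h.mem_orb hF hp24).1 hin'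
    -- replace `n` by `s⁻¹ n`
    have hkey : s⁻¹ * n ∈ K := by
      apply ih (p :: F) ?_ hr hfin
      · exact G.mul_mem (G.inv_mem (hKG hs)) hn
      · intro t ht
        have : s⁻¹ * n * t * (s⁻¹ * n)⁻¹ = s⁻¹ * (n * t * n⁻¹) * s := by group
        rw [this]
        exact K.mul_mem (K.mul_mem (K.inv_mem hs) (hnK t ht)) hs
      · intro a ha
        rw [Equiv.Perm.mul_apply, Equiv.Perm.inv_eq_iff_eq]
        rcases List.mem_cons.1 ha with rfl | ha
        · rw [hnq, hsp]
        · rw [hnF a ha, hsF a ha]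
      · intro a ha
        rcases List.mem_cons.1 ha with rfl | ha
        · exact hp24
        · exact hF a ha
    have := K.mul_mem hs hkey
    rwa [mul_inv_cancel_left] at this

/-- Simplicity of the `2`-fusion system from a certificate. -/
theorem Enum.simple {K : Subgroup (Equiv.Perm GolayPt)} {gens L : List ℕ} (h : Enum K gens L)
    (G : Subgroup (Equiv.Perm GolayPt)) {ok : ℕ → Bool} {m z k d : ℕ} {T : List TStep}
    {r : List (ℕ × List ℕ)} {F : List ℕ}
    (hok : ∀ c, ok c = true → isPermCode c = true ∧ mkPerm c ∈ G)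
    (hgens : (gens.all fun g => ok g) = true) (hz : isPermCode z = true)
    (hcard : Nat.card G = 2 ^ k * d) (hd : ¬ 2 ∣ d) (hL : L.length = 2 ^ k) (hk : k ≠ 0)
    (hctr : ctrOK gens L z = true) (hT : tCheck ok L gens T [z] = true)
    (hm : ∀ g ∈ G, g • toSet m = toSet m) (hF24 : ∀ a ∈ F, a < 24)
    (hFG : ∀ g ∈ G, ∀ a ∈ F, g (gpt a) = gpt a)
    (hchain : nChain L m r F = true)
    (hfin : ∀ g ∈ G, (∀ a ∈ finF r F, g (gpt a) = gpt a) → g = 1) (S : Sylow 2 G) :
    (groupFusionSystem (S : Subgroup G)).IsSimple 2 := by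
  haveI : Fact (Nat.Prime 2) := ⟨Nat.prime_two⟩
  have hKG : K ≤ G := by
    rw [h.gen, Subgroup.closure_le]
    rintro _ ⟨c, hc, rfl⟩
    exact (hok c (List.all_eq_true.1 hgens c hc)).2
  have hKcard : Nat.card K = 2 ^ k := by rw [h.card, hL]
  have hKp : IsPGroup 2 K := IsPGroup.of_card hKcard
  have hKne : K ≠ ⊥ := by
    intro hb
    rw [hb, Subgroup.card_bot] at hKcard
    exact hk (Nat.pow_right_injective le_rfl (by simpa using hKcard.symm))
  apply group_simple_of_subgroup G K hKG hKp ?_ hKne ?_ ?_ S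
  · have h1 := Cfsg.Agent.H2.card_relIndex_mul_card hKG
    rw [hKcard, hcard, mul_comm] at h1
    have h2 : K.relIndex G = d := Nat.eq_of_mul_eq_mul_left (by positivity) h1
    rwa [h2]
  · intro n hn hnK
    exact h.chain_spec hKG hm r F hF24 hchain hfin n hn hnK (hFG n hn)
  · intro U hUK hU0 hUsc
    apply h.tCheck_spec hok hUsc T [z] ?_ hT
    intro t ht
    rw [List.mem_singleton] at ht
    subst ht
    refine ⟨hz, ?_⟩
    -- U meets the centre
    haveI hUn : (U.subgroupOf K).Normal := ⟨fun a ha b => by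
      rw [Subgroup.mem_subgroupOf] at ha ⊢
      exact hUsc _ ha _ (hKG b.2) (K.mul_mem (K.mul_mem b.2 (hUK ha)) (K.inv_mem b.2))⟩
    have hUne : U.subgroupOf K ≠ ⊥ := by
      intro hb
      apply hU0
      rw [eq_bot_iff]
      intro x hx
      have : (⟨x, hUK hx⟩ : K) ∈ U.subgroupOf K := hx
      rw [hb, Subgroup.mem_bot] at this
      rw [Subgroup.mem_bot]; exact congrArg Subtype.val this
    have hb := Cfsg.Agent.H2.inf_center_ne_bot_of_normal hKp (U.subgroupOf K) hUne
    obtain ⟨u, huU, huc, hu1⟩ : ∃ u : K, u ∈ U.subgroupOf K ∧ u ∈ Subgroup.center K ∧ u ≠ 1 := by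
      by_contra hcon
      push Not at hcon
      apply hb
      rw [eq_bot_iff]
      intro u hu
      rw [Subgroup.mem_bot]
      exact hcon u hu.1 hu.2
    have h3 := h.ctr hctr u.2 (fun s hs => by
      have := Subgroup.mem_center_iff.1 huc ⟨s, hs⟩
      exact (congrArg Subtype.val this).symm)
    rcases h3 with h3 | h3
    · exact absurd (Subtype.ext h3) hu1
    · rw [← h3]; exact huU

end Cfsg.Agent.H28
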