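import Mathlib
import Cfsg.Agent.H28.PermCert

/-!
An explicit Sylow 2-subgroup of M11.
-/

set_option autoImplicit false
open Cfsg Cfsg.FusionSystem Cfsg.Agent.H7

namespace Cfsg.Agent.H28

def sdg0 : ℕ := 0x759ea9ca2cadc502d1213996323500

def sdg1 : ℕ := 0x5c5553cacda158273d2499ae144060

def sdg2 : ℕ := 0x5c5f49cacda9602ba8c83a5c323020

def sdg3 : ℕ := 0x51dcbb4a61bd068794cd8a6ac81040

def sdgens : List ℕ := [sdg3, sdg2, sdg1, sdg0]

def sdL0 : List ℕ := [idc]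

def sdL1 : List ℕ := extL sdL0 sdg0

def sdL2 : List ℕ := extL sdL1 sdg1

def sdL3 : List ℕ := extL sdL2 sdg2

def sdL4 : List ℕ := extL sdL3 sdg3

theorem sdstep0 : stepOK [] sdL0 sdg0 [] 0 = true := by decide +kernel

theorem sdstep1 : stepOK [sdg0] sdL1 sdg1 [1] 1 = true := by decide +kernel

theorem sdstep2 : stepOK [sdg1, sdg0] sdL2 sdg2 [3, 1] 0 = true := by decide +kernel

theorem sdstep3 : stepOK [sdg2, sdg1, sdg0] sdL3 sdg3 [6, 2, 1] 3 = true := by decide +kernel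

theorem sdenum : ∃ K, Enum K sdgens sdL4 := by

  obtain ⟨K0, h0⟩ : ∃ K, Enum K [] sdL0 := ⟨_, Enum.base⟩

  obtain ⟨K1, h1⟩ := h0.step _ _ _ sdstep0

  obtain ⟨K2, h2⟩ := h1.step _ _ _ sdstep1

  obtain ⟨K3, h3⟩ := h2.step _ _ _ sdstep2

  obtain ⟨K4, h4⟩ := h3.step _ _ _ sdstep3

  exact ⟨_, h4⟩

def sdT : List TStep := [TStep.conj 7 0 0x7b8b3b4ae35d088a9d868c14d10520,
  TStep.conj 5 0 0xa4e37392b0b29227164878d6d61820,
  TStep.prod 1 2,
  TStep.conj 4 0 0x5d1f13c94dadc502d906985c41b120,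
  TStep.prod 1 4,
  TStep.conj 15 5 0x759748a6682dda1aaa50399e320980,
  TStep.prod 1 6]

def sdchain : List (ℕ × List ℕ) := [(1, [0]), (6, [0]), (9, [0]), (18, [0, 6, 9])]

def sdF : List ℕ := [0]

def sdm : ℕ := 340831

theorem sdlen : sdL4.length = 2 ^ 4 := by decide +kernel

theorem sdctr : ctrOK sdgens sdL4 sdg0 = true := by decide +kernel

theorem sdnc : nChain sdL4 sdm sdchain sdF = true := by decide +kernel

end Cfsg.Agent.H28
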