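import Mathlib
import Cfsg.Agent.H28.PermCert

/-!
An explicit Sylow 2-subgroup of M12.
-/

set_option autoImplicit false
open Cfsg Cfsg.FusionSystem Cfsg.Agent.H7

namespace Cfsg.Agent.H28

def scg0 : ℕ := 0x5da74a89d054481bbd20398ad1c988

def scg1 : ℕ := 0xb9667a8a23539a15bcc8a26c484980

def scg2 : ℕ := 0x59e65a8a267b88cba868b428d4c820

def scg3 : ℕ := 0x751f653166add128cc6d2c0e048444

def scg4 : ℕ := 0xbd9477b1d09c4925d4c8a24ad18440

def scg5 : ℕ := 0x99567bb5e98aa48aba0ca0ec231001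

def scgens : List ℕ := [scg5, scg4, scg3, scg2, scg1, scg0]

def scL0 : List ℕ := [idc]

def scL1 : List ℕ := extL scL0 scg0

def scL2 : List ℕ := extL scL1 scg1

def scL3 : List ℕ := extL scL2 scg2

def scL4 : List ℕ := extL scL3 scg3

def scL5 : List ℕ := extL scL4 scg4

def scL6 : List ℕ := extL scL5 scg5

theorem scstep0 : stepOK [] scL0 scg0 [] 0 = true := by decide +kernel

theorem scstep1 : stepOK [scg0] scL1 scg1 [1] 0 = true := by decide +kernel

theorem scstep2 : stepOK [scg1, scg0] scL2 scg2 [2, 1] 0 = true := by decide +kernel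

theorem scstep3 : stepOK [scg2, scg1, scg0] scL3 scg3 [5, 2, 1] 0 = true := by decide +kernel

theorem scstep4 : stepOK [scg3, scg2, scg1, scg0] scL4 scg4 [11, 6, 2, 1] 0 = true := by decide +kernel

theorem scstep5 : stepOK [scg4, scg3, scg2, scg1, scg0] scL5 scg5 [31, 8, 4, 3, 1] 0 = true := by decide +kernel

theorem scenum : ∃ K, Enum K scgens scL6 := by

  obtain ⟨K0, h0⟩ : ∃ K, Enum K [] scL0 := ⟨_, Enum.base⟩

  obtain ⟨K1, h1⟩ := h0.step _ _ _ scstep0

  obtain ⟨K2, h2⟩ := h1.step _ _ _ scstep1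

  obtain ⟨K3, h3⟩ := h2.step _ _ _ scstep2

  obtain ⟨K4, h4⟩ := h3.step _ _ _ scstep3

  obtain ⟨K5, h5⟩ := h4.step _ _ _ scstep4

  obtain ⟨K6, h6⟩ := h5.step _ _ _ scstep5

  exact ⟨_, h6⟩

def scT : List TStep := [TStep.conj 2 0 0xa2eb79b148b3e0939402891c3684d2,
  TStep.conj 4 0 0xbc6cf39a68a564959424531c20406d,
  TStep.conj 16 0 0x994f6a36205384c7d5065c2e119249,
  TStep.conj 7 0 0x2add788aaca4d233d828791506c8c0,
  TStep.prod 3 4,
  TStep.conj 28 0 0x7d175882c3b94c4538329b0e983502,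
  TStep.prod 5 6,
  TStep.conj 30 0 0x9a8e5a3232bae00ab8c878ac3485a4,
  TStep.prod 5 8,
  TStep.conj 32 9 0x5168b88e647ba40b9c4db26ac804c8]

def scchain : List (ℕ × List ℕ) := [(0, []), (4, [0]), (8, [0]), (13, [0, 4, 8]), (1, [])]

def scF : List ℕ := []

def scm : ℕ := 340831

theorem sclen : scL6.length = 2 ^ 6 := by decide +kernel

theorem scctr : ctrOK scgens scL6 scg0 = true := by decide +kernel

theorem scnc : nChain scL6 scm scchain scF = true := by decide +kernel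

end Cfsg.Agent.H28
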