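import Mathlib
import Cfsg.Agent.H28.PermCert

/-!
An explicit Sylow 2-subgroup of M22 and M23.
-/

set_option autoImplicit false
open Cfsg Cfsg.FusionSystem Cfsg.Agent.H7

namespace Cfsg.Agent.H28

def sbg0 : ℕ := 0xbc0ea332364b892451ebaccad18820

def sbg1 : ℕ := 0xbb4c93ae2453ac893e8c9d4b018820

def sbg2 : ℕ := 0xb9e086be3593a6952d94b10a618820

def sbg3 : ℕ := 0xbc92655a2c3b9706cea47d0a818820

def sbg4 : ℕ := 0xbd8cf3b1d0a45b24254b9d46428820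

def sbg5 : ℕ := 0xbda6aaacb048da8951ec31e2470820

def sbg6 : ℕ := 0xbc2954c9d6345ac41e6b53ca418440

def sbgens : List ℕ := [sbg6, sbg5, sbg4, sbg3, sbg2, sbg1, sbg0]

def sbL0 : List ℕ := [idc]

def sbL1 : List ℕ := extL sbL0 sbg0

def sbL2 : List ℕ := extL sbL1 sbg1

def sbL3 : List ℕ := extL sbL2 sbg2

def sbL4 : List ℕ := extL sbL3 sbg3

def sbL5 : List ℕ := extL sbL4 sbg4

def sbL6 : List ℕ := extL sbL5 sbg5

def sbL7 : List ℕ := extL sbL6 sbg6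

theorem sbstep0 : stepOK [] sbL0 sbg0 [] 0 = true := by decide +kernel

theorem sbstep1 : stepOK [sbg0] sbL1 sbg1 [1] 0 = true := by decide +kernel

theorem sbstep2 : stepOK [sbg1, sbg0] sbL2 sbg2 [2, 1] 0 = true := by decide +kernel

theorem sbstep3 : stepOK [sbg2, sbg1, sbg0] sbL3 sbg3 [4, 2, 1] 0 = true := by decide +kernel

theorem sbstep4 : stepOK [sbg3, sbg2, sbg1, sbg0] sbL4 sbg4 [9, 6, 2, 1] 0 = true := by decide +kernel

theorem sbstep5 : stepOK [sbg4, sbg3, sbg2, sbg1, sbg0] sbL5 sbg5 [16, 10, 7, 2, 1] 0 = true := by decide +kernel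

theorem sbstep6 : stepOK [sbg5, sbg4, sbg3, sbg2, sbg1, sbg0] sbL6 sbg6 [48, 16, 9, 15, 3, 1] 0 = true := by decide +kernel

theorem sbenum : ∃ K, Enum K sbgens sbL7 := by

  obtain ⟨K0, h0⟩ : ∃ K, Enum K [] sbL0 := ⟨_, Enum.base⟩

  obtain ⟨K1, h1⟩ := h0.step _ _ _ sbstep0

  obtain ⟨K2, h2⟩ := h1.step _ _ _ sbstep1

  obtain ⟨K3, h3⟩ := h2.step _ _ _ sbstep2

  obtain ⟨K4, h4⟩ := h3.step _ _ _ sbstep3

  obtain ⟨K5, h5⟩ := h4.step _ _ _ sbstep4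

  obtain ⟨K6, h6⟩ := h5.step _ _ _ sbstep5

  obtain ⟨K7, h7⟩ := h6.step _ _ _ sbstep6

  exact ⟨_, h7⟩

def sbT : List TStep := [TStep.conj 2 0 0xbc9a47d62b48ce664288b2833115c0,
  TStep.conj 4 0 0xbc0cb64c753b90d7aad22245428620,
  TStep.conj 8 0 0xb9ecc5202f315a44c29594e2b70860,
  TStep.conj 16 0 0xbbe2819e149593332d957148a68820,
  TStep.conj 32 0 0xbc58a91e054b466ad1f342ece20820,
  TStep.conj 64 0 0xbd02eb26555b1f33c50a140a61b480]

def sbchain : List (ℕ × List ℕ) := [(1, [23, 0]), (2, [23, 0, 1]), (3, [23, 0, 1, 2]), (4, [23, 0, 1, 2, 3]), (5, [23, 0, 3])]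

def sbF : List ℕ := [23, 0]

def sbm : ℕ := 0

theorem sblen : sbL7.length = 2 ^ 7 := by decide +kernel

theorem sbctr : ctrOK sbgens sbL7 sbg0 = true := by decide +kernel

theorem sbnc : nChain sbL7 sbm sbchain sbF = true := by decide +kernel

end Cfsg.Agent.H28
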